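import Cfsg.Agent.SchurRational.Bound
import Cfsg.Agent.Clifford.GlaubermanNormalSylow
import Cfsg.Agent.Blocks.DetTwist

/-!
# Extensions fixed by the field automorphisms fixing the roots of unity of a normal Hall subgroup
-/

set_option autoImplicit false
set_option linter.unusedSectionVars false
set_option linter.style.haveILetI false

namespace CfsgLib.SchurRational

open Cfsg CfsgLib.CharBasics CfsgLib.Clifford

universe u

variable {Γ : Type u} [Group Γ] [Finite Γ] (N : Subgroup Γ) [hN : N.Normal]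

/-- Fixed by the Galois automorphisms that fix the roots of unity of `N`. -/
def GalFixed (Φ : Γ → ℂ) : Prop :=
  ∀ k : ℕ, k.Coprime (Nat.card Γ) → k ≡ 1 [MOD Nat.card N] → ∀ g, Φ (g ^ k) = Φ g

/-- The canonical extension of an invariant irreducible character of a normal Hall subgroup. -/
theorem exists_canonical_ext (hcop : N.index.Coprime (Nat.card N)) {θ : N → ℂ} (hθ : IsIrrCharacter N θ)
    (hK : ∀ g : Γ, conjFun g θ = θ) :
    ∃ η : Γ → ℂ, IsIrrCharacter Γ η ∧ (∀ n : N, η n = θ n) ∧ GalFixed N η := by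
  set d := charDegree θ
  have hd : θ 1 = (d : ℂ) := apply_one (isCharacter_of_irr hθ)
  have hcopd : Nat.Coprime N.index d := hcop.of_dvd_right (degree_dvd (⟨θ, hθ⟩ : IrrCharacter N))
  obtain ⟨lam, hlam⟩ := exists_detHom hθ
  have hlamo : ∀ n : N, lam n ^ Nat.card N = 1 := fun n => by rw [← map_pow, pow_card_eq_one', map_one]
  have hlinv : ∀ (g : Γ) (n : N), lam ⟨g * n * g⁻¹, hN.conj_mem (n : Γ) n.2 g⟩ = lam n := by
    intro g n
    have e := NormalSylowCorr.detChar_comp hθ (MulAut.conjNormal g : N ≃* N)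
    rw [← conjFun_eq_comp, hK g, hlam] at e
    rw [show lam n = _ from congrFun e n]
    exact congrArg lam (Subtype.ext (MulAut.conjNormal_apply g n).symm)
  obtain ⟨μ, hμ, hμo⟩ := exists_coprime_linearExtension lam hlinv hlamo hcop
  have hμ' : ∀ n : N, μ n = detChar θ n := fun n => by rw [hμ, hlam]
  obtain ⟨η₀, hη₀, hη₀r⟩ := exists_charExtension_of_det hθ (fun g n => congrFun (hK g) n) hd hcopd μ hμ'
  obtain ⟨η, hη, hηr, hηd⟩ := exists_extension_with_det hθ hd hcopd hη₀ hη₀r μ hμ'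
  refine ⟨η, hη, hηr, fun k hk hk1 g => ?_⟩
  have hirr : IsIrrCharacter Γ (fun x => η (x ^ k)) := BrauerInd.isIrr_pow hk hη
  have hres : ∀ n : N, η ((n : Γ) ^ k) = θ n := fun n => by
    have e : n ^ k = n := by
      conv_rhs => rw [← pow_one n]
      exact pow_eq_pow_iff_modEq.2 (hk1.of_dvd (orderOf_dvd_natCard n))
    rw [← SubmonoidClass.coe_pow, e, hηr]
  have h1 : detChar η ^ Nat.card N = 1 := by
    funext x
    rw [Pi.pow_apply, hηd, Pi.one_apply]
    exact hμo x
  have h2 : detChar (fun x => η (x ^ k)) ^ Nat.card N = 1 :=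
    orderOf_dvd_iff_pow_eq_one.1 ((DetTwist.detOrder_pow_dvd hk hη).trans (orderOf_dvd_iff_pow_eq_one.2 h1))
  exact congrFun (extension_unique_of_det (N := N) hθ hd hη hηr hirr hres (a := Nat.card N)
    (Nat.Coprime.mul_right hcopd hcop) (fun x => (congrFun h1 x).trans (congrFun h2 x).symm)) g

/-- Over every irreducible character there is a fixed character restricting to the orbit sum. -/
theorem exists_over_orbit [Fintype Γ] [Fintype N] [DecidableEq (N → ℂ)] (hcop : N.index.Coprime (Nat.card N))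
    {θ : N → ℂ} (hθ : IsIrrCharacter N θ) :
    ∃ Φ : Γ → ℂ, IsCharacter Γ Φ ∧
      (fun n : N => Φ n) = ∑ φ ∈ Finset.univ.image (fun g : Γ => conjFun g θ), φ ∧ GalFixed N Φ := by
  classical
  set T : Subgroup Γ := inertia θ with hT
  have hNT : N ≤ T := le_inertia (isClassFunction (isCharacter_of_irr hθ))
  haveI := Fintype.ofFinite T
  let e : N.subgroupOf T ≃* N := Subgroup.subgroupOfEquivOfLe hNT
  have hθ' : IsIrrCharacter (N.subgroupOf T) (fun x => θ (e x)) :=
    Clifford.isIrrCharacter_comp hθ e.toMonoidHom e.surjective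
  have hK : ∀ t : T, conjFun t (fun x : N.subgroupOf T => θ (e x)) = fun x => θ (e x) := by
    intro t
    funext x
    have ht : (t : Γ) ∈ inertia θ := t.2
    have h := congrFun (mem_inertia.1 ht) (e x)
    rw [conjFun_apply] at h ⊢
    exact h
  have hcop' : (N.subgroupOf T).index.Coprime (Nat.card (N.subgroupOf T)) := by
    rw [Nat.card_congr e.toEquiv]
    exact hcop.of_dvd_left (Dvd.intro _ (Subgroup.relIndex_mul_index hNT))
  obtain ⟨η, hη, hηr, hηg⟩ := exists_canonical_ext (N.subgroupOf T) hcop' hθ' hK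
  have hηN : ∀ n : N, η ⟨(n : Γ), hNT n.2⟩ = θ n := fun n => hηr (e.symm n) |>.trans (by rw [e.apply_symm_apply])
  have hin : classInner (fun n : N => η ⟨(n : Γ), hNT n.2⟩) θ = 1 := by
    rw [show (fun n : N => η ⟨(n : Γ), hNT n.2⟩) = θ from funext hηN, classInner_self hθ]
  obtain ⟨hirr, hmul⟩ := indFun_inertia_irr hθ T hT hNT hη (by rw [hin]; exact one_ne_zero)
  rw [hin] at hmul
  refine ⟨indFun T η, isCharacter_of_irr hirr, ?_, fun k hk hk1 g => ?_⟩
  · rw [restrict_eq_orbit_sum hirr hθ (by rw [hmul]; exact one_ne_zero), hmul, one_smul]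
  · have hkT : k.Coprime (Nat.card T) := hk.coprime_dvd_right (Subgroup.card_subgroup_dvd_card T)
    simp only [Cfsg.indFun]
    congr 1
    refine Finset.sum_congr rfl fun x _ => ?_
    have hx : x⁻¹ * g ^ k * x = (x⁻¹ * g * x) ^ k := by simpa using (conj_pow (i := k) (a := x⁻¹) (b := g)).symm
    rw [hx]
    by_cases hm : x⁻¹ * g * x ∈ T
    · rw [IndFun.extendByZero_mem _ hm, IndFun.extendByZero_mem _ (T.pow_mem hm k)]
      refine Eq.trans (congrArg η (Subtype.ext (SubmonoidClass.coe_pow (⟨_, hm⟩ : T) k).symm)) ?_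
      exact hηg k hkT (by rwa [Nat.card_congr e.toEquiv]) _
    · rw [IndFun.extendByZero_not_mem _ hm,
        IndFun.extendByZero_not_mem _ fun h => hm ((BrauerInd.mem_pow_iff hk T _).1 h)]

/-- An invariant character of a normal Hall subgroup extends to a fixed character. -/
theorem exists_fixed_ext [Fintype Γ] [Fintype N] (hcop : N.index.Coprime (Nat.card N)) :
    ∀ (n : ℕ) (ψ : N → ℂ), IsCharacter N ψ → charDegree ψ = n → (∀ g : Γ, conjFun g ψ = ψ) →
      ∃ Φ : Γ → ℂ, IsCharacter Γ Φ ∧ (∀ m : N, Φ m = ψ m) ∧ GalFixed N Φ := by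
  intro n
  induction n using Nat.strong_induction_on with
  | _ n ih =>
  intro ψ hψ hn hinv
  classical
  rcases Nat.eq_zero_or_pos n with h0 | h0
  · refine ⟨0, CharBasics.isCharacter_zero, fun m => ?_, fun k _ _ g => rfl⟩
    rw [eq_zero_of_apply_one hψ (by rw [apply_one hψ, hn, h0, Nat.cast_zero])]
    rfl
  obtain ⟨θ, m, hm, hθ⟩ := exists_constituent hψ (by rw [apply_one hψ, hn]; exact Nat.cast_ne_zero.2 h0.ne')
  set O := Finset.univ.image (fun g : Γ => conjFun g (θ : N → ℂ)) with hO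
  have hOirr : ∀ φ ∈ O, IsIrrCharacter N φ ∧ classInner ψ φ ≠ 0 := by
    intro φ hφ
    obtain ⟨g, -, rfl⟩ := Finset.mem_image.1 hφ
    refine ⟨isIrrCharacter_conjFun g θ.2, ?_⟩
    rw [← hinv g, classInner_conjFun, hθ]
    exact Nat.cast_ne_zero.2 hm.ne'
  obtain ⟨Φ₁, hΦ₁, hres₁, hfix₁⟩ := exists_over_orbit N hcop θ.2
  have hν := isCharacter_sub_sum hψ O hOirr
  rw [← hO] at hres₁
  rw [← hres₁] at hν
  set ν : N → ℂ := ψ - fun x : N => Φ₁ x with hνd
  have hdeg : charDegree ν < n := by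
    have h1 : ν 1 + Φ₁ 1 = ψ 1 := by rw [hνd, Pi.sub_apply, Subgroup.coe_one, sub_add_cancel]
    rw [apply_one hν, apply_one hΦ₁, apply_one hψ, hn] at h1
    have h2 : charDegree ν + charDegree Φ₁ = n := by exact_mod_cast h1
    have h3 : charDegree Φ₁ ≠ 0 := by
      intro h3
      have h4 : Φ₁ = 0 := eq_zero_of_apply_one hΦ₁ (by rw [apply_one hΦ₁, h3, Nat.cast_zero])
      have h5 := congrFun hres₁ 1
      rw [h4, Finset.sum_apply] at h5
      have h6 : ∀ φ ∈ O, φ 1 = (charDegree (θ : N → ℂ) : ℂ) := fun φ hφ => by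
        obtain ⟨g, -, rfl⟩ := Finset.mem_image.1 hφ
        rw [conjFun_apply, ← apply_one (isCharacter_of_irr θ.2)]
        exact congrArg _ (Subtype.ext (by simp))
      rw [Finset.sum_congr rfl h6, Finset.sum_const, nsmul_eq_mul, Pi.zero_apply, eq_comm, mul_eq_zero,
        Nat.cast_eq_zero, Nat.cast_eq_zero, Finset.card_eq_zero] at h5
      rcases h5 with h5 | h5
      · have h7 : conjFun (1 : Γ) (θ : N → ℂ) ∈ O := Finset.mem_image_of_mem _ (Finset.mem_univ _)
        rw [h5] at h7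
        exact Finset.notMem_empty _ h7
      · exact (charDegree_pos θ.2).ne' h5
    omega
  have hνinv : ∀ g : Γ, conjFun g ν = ν := by
    intro g
    funext x
    have h1 := congrFun (hinv g) x
    have h2 := congrFun (conjFun_restrict (N := N) (isClassFunction hΦ₁) g) x
    rw [conjFun_apply] at h1 h2 ⊢
    rw [hνd, Pi.sub_apply, Pi.sub_apply, h1]
    exact congrArg (ψ x - ·) h2
  obtain ⟨Φ₂, hΦ₂, hres₂, hfix₂⟩ := ih _ hdeg ν hν rfl hνinv
  refine ⟨Φ₂ + Φ₁, CharBasics.isCharacter_add hΦ₂ hΦ₁, fun x => ?_, fun k hk hk1 g => ?_⟩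
  · rw [Pi.add_apply, hres₂, hνd, Pi.sub_apply, sub_add_cancel]
  · rw [Pi.add_apply, Pi.add_apply, hfix₂ k hk hk1, hfix₁ k hk hk1]

end CfsgLib.SchurRational
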