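import Cfsg.Agent.PFieldBound.Main
import Cfsg.Agent.Clifford.Basic

/-!
# Schur's bound for a finite p-group with a faithful rational valued character
-/

set_option autoImplicit false
set_option linter.unusedSectionVars false
set_option linter.style.haveILetI false

namespace CfsgLib.SchurRational

open Cfsg CfsgLib.CharBasics CfsgLib.Clifford CfsgLib.PFieldBound

universe u

/-- Schur's exponent bound. -/
def T (p n : ℕ) : ℕ := ∑ i ∈ Finset.range (n + 1), n / ((p - 1) * p ^ i)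

theorem T_range {p : ℕ} (hp : 2 ≤ p) {n m : ℕ} (h : n + 1 ≤ m) :
    ∑ i ∈ Finset.range m, n / ((p - 1) * p ^ i) = T p n := by
  refine (Finset.sum_subset (Finset.range_mono h) fun i _ hi => ?_).symm
  rw [Finset.mem_range, not_lt] at hi
  refine Nat.div_eq_of_lt ?_
  calc n < p ^ i := lt_of_lt_of_le (Nat.lt_of_lt_of_le (Nat.lt_succ_self n) hi) (Nat.lt_pow_self hp).le
    _ ≤ (p - 1) * p ^ i := Nat.le_mul_of_pos_left _ (by omega)

theorem T_add {p : ℕ} (hp : 2 ≤ p) (a b : ℕ) : T p a + T p b ≤ T p (a + b) := by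
  rw [← T_range hp (show a + 1 ≤ a + b + 1 by omega), ← T_range hp (show b + 1 ≤ a + b + 1 by omega),
    ← Finset.sum_add_distrib]
  exact Finset.sum_le_sum fun i _ => Nat.add_div_le_add_div _ _ _

theorem T_mono {p : ℕ} (hp : 2 ≤ p) {a b : ℕ} (h : a ≤ b) : T p a ≤ T p b := by
  obtain ⟨c, rfl⟩ := Nat.exists_eq_add_of_le h
  exact le_trans (Nat.le_add_right _ _) (T_add hp a c)

theorem geom_le {p : ℕ} (hp : 2 ≤ p) (j : ℕ) : (p - 1) * T p ((p - 1) * p ^ j) + 1 ≥ p ^ (j + 1) := by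
  have hj : j + 1 ≤ (p - 1) * p ^ j + 1 :=
    Nat.succ_le_succ ((Nat.lt_pow_self hp).le.trans (Nat.le_mul_of_pos_left _ (by omega)))
  have h1 : ∑ i ∈ Finset.range (j + 1), p ^ (j - i) ≤ T p ((p - 1) * p ^ j) := by
    refine le_trans (le_of_eq (Finset.sum_congr rfl fun i hi => ?_)) (Finset.sum_le_sum_of_subset (Finset.range_mono hj))
    rw [Finset.mem_range] at hi
    rw [Nat.mul_div_mul_left _ _ (by omega), Nat.pow_div (by omega) (by omega)]
  rw [← Finset.sum_range_reflect] at h1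
  simp only [add_tsub_cancel_right] at h1
  have h2 : ∑ i ∈ Finset.range (j + 1), p ^ (j - (j - i)) = ∑ i ∈ Finset.range (j + 1), p ^ i :=
    Finset.sum_congr rfl fun i hi => by rw [Finset.mem_range] at hi; congr 1; omega
  rw [h2] at h1
  have h3 : (p - 1) * ∑ i ∈ Finset.range (j + 1), p ^ i + 1 = p ^ (j + 1) := by
    clear h1 h2 hj
    induction j with
    | zero => simp; omega
    | succ j ih =>
      rw [Finset.sum_range_succ, mul_add, add_right_comm, ih, pow_succ p (j + 1)]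
      obtain ⟨q, rfl⟩ : ∃ q, p = q + 1 := ⟨p - 1, by omega⟩
      rw [Nat.add_sub_cancel]; ring
  have := Nat.mul_le_mul_left (p - 1) h1
  omega

theorem bernoulli {p : ℕ} (hp : 2 ≤ p) (t : ℕ) : 1 + (p - 1) * (t + 1) ≤ p ^ (t + 1) := by
  induction t with
  | zero => simp; omega
  | succ t ih =>
    have h1 : 1 ≤ p ^ (t + 1) := Nat.one_le_pow _ _ (by omega)
    obtain ⟨q, rfl⟩ : ∃ q, p = q + 1 := ⟨p - 1, by omega⟩
    rw [Nat.add_sub_cancel] at ih ⊢
    rw [pow_succ (q + 1) (t + 1), mul_add _ q 1, mul_one]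
    nlinarith

variable {G : Type u} [Group G] [Finite G]

/-- Removing a set of constituents leaves a character. -/
theorem isCharacter_sub_sum [Fintype G] {χ : G → ℂ} (hχ : IsCharacter G χ) (O : Finset (G → ℂ))
    (hO : ∀ φ ∈ O, IsIrrCharacter G φ ∧ classInner χ φ ≠ 0) :
    IsCharacter G (χ - ∑ φ ∈ O, φ) := by
  classical
  have hcl : IsClassFunction G (χ - ∑ φ ∈ O, φ) := by
    intro g k
    simp only [Pi.sub_apply, Finset.sum_apply]
    rw [isClassFunction hχ g k]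
    congr 1
    exact Finset.sum_congr rfl fun φ hφ => isClassFunction (isCharacter_of_irr (hO φ hφ).1) g k
  refine isCharacter_of_inner_nat hcl fun ψ => ?_
  obtain ⟨m, hm⟩ := classInner_character_nat hχ ψ
  rw [classInner_sub_left, classInner_sum_left, hm]
  by_cases hψ : (ψ : G → ℂ) ∈ O
  · rw [Finset.sum_eq_single (ψ : G → ℂ) (fun φ hφ hne => classInner_ne (hO φ hφ).1 ψ.2 hne)
      (fun h => absurd hψ h), classInner_self ψ.2]
    have hm0 : m ≠ 0 := fun h0 => (hO _ hψ).2 (by rw [hm, h0, Nat.cast_zero])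
    exact ⟨m - 1, by rw [Nat.cast_sub (Nat.one_le_iff_ne_zero.2 hm0), Nat.cast_one]⟩
  · rw [Finset.sum_eq_zero fun φ hφ => classInner_ne (hO φ hφ).1 ψ.2 (fun h => hψ (h ▸ hφ)), sub_zero]
    exact ⟨m, rfl⟩

variable {p : ℕ} [hp : Fact p.Prime]

theorem mem_center_iff_faithful {ψ : G → ℂ} (hψ : IsIrrCharacter G ψ) (hf : ∀ g, ψ g = ψ 1 → g = 1)
    {z w : G} (hz : z ∈ Subgroup.center G) (h : ψ z = ψ w) : z = w := by
  have e0 := center_mul hψ hz z⁻¹
  rw [mul_inv_cancel] at e0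
  have e1 := center_mul hψ ((Subgroup.center G).inv_mem hz) w
  have hz0 : ψ z ≠ 0 := fun h0 => by
    rw [h0, zero_mul] at e0
    exact mul_self_ne_zero.2 (apply_one_ne_zero hψ) e0
  have : ψ (z⁻¹ * w) = ψ 1 := by
    refine mul_left_cancel₀ (apply_one_ne_zero hψ) ?_
    rw [e1, e0, h]; ring
  exact inv_mul_eq_one.1 (hf _ this)

/-- The index of the fixing units of a faithful irreducible character of a nontrivial p-group. -/
theorem index_unitFix_form (hG : IsPGroup p G) [Nontrivial G] {a : ℕ} [NeZero (p ^ a)] (h : Nat.card G ∣ p ^ a)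
    {ψ : G → ℂ} (hψ : IsIrrCharacter G ψ) (hf : ∀ g, ψ g = ψ 1 → g = 1) :
    ∃ t, (unitFix (p ^ a) h ψ).index = (p - 1) * p ^ t := by
  obtain ⟨c, hc⟩ := hG.exists_card_eq
  have hc0 : c ≠ 0 := by
    rintro rfl
    exact absurd hc (by rw [pow_zero]; exact (Finite.one_lt_card).ne')
  have ha : a ≠ 0 := by
    rintro rfl
    rw [hc, pow_zero, Nat.dvd_one] at h
    exact absurd h (Nat.one_lt_pow hc0 hp.out.one_lt).ne'
  have hpa : p ∣ p ^ a := dvd_pow_self p ha
  haveI : Nontrivial (Subgroup.center G) := hG.center_nontrivial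
  obtain ⟨⟨z, hzc⟩, hz⟩ : ∃ z : Subgroup.center G, orderOf z = p := by
    refine exists_prime_orderOf_dvd_card' p ?_
    obtain ⟨d, hd⟩ := (hG.to_subgroup (Subgroup.center G)).exists_card_eq
    rw [hd]
    refine dvd_pow_self p ?_
    rintro rfl
    exact absurd hd (by rw [pow_zero]; exact (Finite.one_lt_card).ne')
  rw [Subgroup.orderOf_mk] at hz
  have hle : unitFix (p ^ a) h ψ ≤ (ZMod.unitsMap hpa).ker := by
    intro u hu
    have h1 := mem_center_iff_faithful hψ hf (Subgroup.pow_mem _ hzc (u : ZMod (p ^ a)).val) (hu z)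
    rw [MonoidHom.mem_ker, Units.ext_iff, ZMod.unitsMap_def, Units.coe_map, Units.val_one]
    show ZMod.castHom hpa (ZMod p) (u : ZMod (p ^ a)) = 1
    conv_rhs at h1 => rw [← pow_one z]
    rw [pow_eq_pow_iff_modEq, hz, ← ZMod.natCast_eq_natCast_iff, Nat.cast_one] at h1
    rwa [ZMod.castHom_apply, ZMod.cast_eq_val]
  have h1 : p - 1 ∣ (unitFix (p ^ a) h ψ).index := by
    refine dvd_trans (dvd_of_eq ?_) (Subgroup.index_dvd_of_le hle)
    rw [Subgroup.index_ker, MonoidHom.range_eq_top.2 (ZMod.unitsMap_surjective hpa), Subgroup.card_top,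
      Nat.card_eq_fintype_card, ZMod.card_units_eq_totient, Nat.totient_prime hp.out]
  have h2 : (unitFix (p ^ a) h ψ).index ∣ (p - 1) * p ^ (a - 1) := by
    refine dvd_trans (Subgroup.index_dvd_card _) (dvd_of_eq ?_)
    rw [Nat.card_eq_fintype_card, ZMod.card_units_eq_totient, Nat.totient_prime_pow hp.out (Nat.pos_of_ne_zero ha), mul_comm]
  obtain ⟨w, hw⟩ := h1
  rw [hw] at h2 ⊢
  obtain ⟨t, -, rfl⟩ := (Nat.dvd_prime_pow hp.out).1
    (Nat.dvd_of_mul_dvd_mul_left (by have := hp.out.two_le; omega) h2)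
  exact ⟨t, rfl⟩

/-- Schur's theorem: a rational valued character has a large kernel. -/
theorem schur : ∀ (n : ℕ) (Q : Type u) [Group Q] [Finite Q], IsPGroup p Q → ∀ χ : Q → ℂ, IsCharacter Q χ →
    charDegree χ = n → (∀ k : ℕ, k.Coprime (Nat.card Q) → ∀ g, χ (g ^ k) = χ g) →
    ∃ K : Subgroup Q, (∀ g ∈ K, χ g = χ 1) ∧ K.index ≤ p ^ T p n := by
  intro n
  induction n using Nat.strong_induction_on with
  | _ n ih =>
  intro Q _ _ hQ χ hχ hn hrat
  classical
  haveI := Fintype.ofFinite Q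
  have hp1 : 1 ≤ p := hp.out.one_le
  rcases Nat.eq_zero_or_pos n with h0 | h0
  · refine ⟨⊤, fun g _ => ?_, by rw [Subgroup.index_top]; exact Nat.one_le_pow _ _ hp1⟩
    have h1 : χ = 0 := eq_zero_of_apply_one hχ (by rw [apply_one hχ, hn, h0, Nat.cast_zero])
    rw [h1]; rfl
  obtain ⟨ψ, m, hm, hψ⟩ := exists_constituent hχ (by rw [apply_one hχ, hn]; exact Nat.cast_ne_zero.2 h0.ne')
  obtain ⟨a, ha⟩ := hQ.exists_card_eq
  haveI : NeZero (p ^ a) := ⟨(pow_pos hp.out.pos a).ne'⟩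
  have hdvd : Nat.card Q ∣ p ^ a := ha.dvd
  have hcop : ∀ u : (ZMod (p ^ a))ˣ, ((u : ZMod (p ^ a)).val).Coprime (Nat.card Q) :=
    fun u => (ZMod.val_coe_unit_coprime u).coprime_dvd_right hdvd
  letI : MulAction (ZMod (p ^ a))ˣ (Q → ℂ) :=
    { smul := fun u f g => f (g ^ (u : ZMod (p ^ a)).val)
      one_smul := fun f => funext fun g => congrArg f (pow_one_val hdvd g)
      mul_smul := fun u v f => funext fun g => congrArg f (pow_mul_val hdvd u v g) }
  have hsm : ∀ (u : (ZMod (p ^ a))ˣ) (f : Q → ℂ) (g : Q), (u • f) g = f (g ^ (u : ZMod (p ^ a)).val) :=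
    fun _ _ _ => rfl
  set O : Finset (Q → ℂ) := Finset.univ.image (fun u : (ZMod (p ^ a))ˣ => u • (ψ : Q → ℂ)) with hO
  have hstab : MulAction.stabilizer (ZMod (p ^ a))ˣ (ψ : Q → ℂ) = unitFix (p ^ a) hdvd (ψ : Q → ℂ) := by
    ext u
    rw [MulAction.mem_stabilizer_iff, mem_unitFix, funext_iff]
    simp only [hsm]
  have hOc : O.card = (unitFix (p ^ a) hdvd (ψ : Q → ℂ)).index := by
    rw [← hstab, MulAction.index_stabilizer, ← Set.ncard_coe_finset, hO, Finset.coe_image, Finset.coe_univ,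
      Set.image_univ]
    rfl
  have hOirr : ∀ φ ∈ O, IsIrrCharacter Q φ ∧ classInner χ φ ≠ 0 := by
    intro φ hφ
    obtain ⟨u, -, rfl⟩ := Finset.mem_image.1 hφ
    refine ⟨BrauerInd.isIrr_pow (hcop u) ψ.2, ?_⟩
    have e : χ = fun g => χ (g ^ (u : ZMod (p ^ a)).val) := funext fun g => (hrat _ (hcop u) g).symm
    rw [e, classInner_eq]
    have hbij : Function.Bijective fun g : Q => g ^ (u : ZMod (p ^ a)).val :=
      (powCoprime (hcop u).symm).bijective
    simp only [hsm]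
    rw [hbij.sum_comp (fun g : Q => χ g * starRingEnd ℂ ((ψ : Q → ℂ) g)), ← classInner_eq, hψ]
    exact Nat.cast_ne_zero.2 hm.ne'
  have hdeg : ∀ φ ∈ O, φ 1 = (charDegree (ψ : Q → ℂ) : ℂ) := by
    intro φ hφ
    obtain ⟨u, -, rfl⟩ := Finset.mem_image.1 hφ
    rw [hsm, one_pow, apply_one (isCharacter_of_irr ψ.2)]
  have hν := isCharacter_sub_sum hχ O hOirr
  set ν := χ - ∑ φ ∈ O, φ with hνd
  have hsum1 : (∑ φ ∈ O, φ) 1 = ((O.card * charDegree (ψ : Q → ℂ) : ℕ) : ℂ) := by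
    rw [Finset.sum_apply, Finset.sum_congr rfl hdeg, Finset.sum_const, nsmul_eq_mul, Nat.cast_mul]
  have hsplit : charDegree ν + O.card * charDegree (ψ : Q → ℂ) = n := by
    have h1 : ν 1 + (∑ φ ∈ O, φ) 1 = χ 1 := by rw [hνd, Pi.sub_apply, sub_add_cancel]
    rw [apply_one hν, hsum1, apply_one hχ, hn] at h1
    exact_mod_cast h1
  have hOpos : 0 < O.card * charDegree (ψ : Q → ℂ) := Nat.mul_pos
    (Finset.card_pos.2 ⟨(1 : (ZMod (p ^ a))ˣ) • (ψ : Q → ℂ), Finset.mem_image_of_mem _ (Finset.mem_univ _)⟩)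
    (charDegree_pos ψ.2)
  have hνrat : ∀ k : ℕ, k.Coprime (Nat.card Q) → ∀ g, ν (g ^ k) = ν g := by
    intro k hk g
    have hku : k.Coprime (p ^ a) := ha ▸ hk
    set v : (ZMod (p ^ a))ˣ := ZMod.unitOfCoprime k hku
    have hgk : g ^ k = g ^ (v : ZMod (p ^ a)).val := by
      rw [ZMod.coe_unitOfCoprime, ZMod.val_natCast, ← ha]
      exact (pow_mod_natCard g k).symm
    rw [hνd, Pi.sub_apply, Pi.sub_apply, hrat k hk, hgk, Finset.sum_apply, Finset.sum_apply]
    congr 1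
    refine Finset.sum_bij (fun φ _ => v • φ) (fun φ hφ => ?_) (fun _ _ _ _ h => smul_left_cancel v h)
      (fun φ hφ => ?_) (fun φ _ => (hsm v φ g).symm)
    · obtain ⟨u, -, rfl⟩ := Finset.mem_image.1 hφ
      rw [← mul_smul]
      exact Finset.mem_image_of_mem _ (Finset.mem_univ _)
    · obtain ⟨u, -, rfl⟩ := Finset.mem_image.1 hφ
      exact ⟨(v⁻¹ * u) • (ψ : Q → ℂ), Finset.mem_image_of_mem _ (Finset.mem_univ _),
        by rw [← mul_smul, mul_inv_cancel_left]⟩
  obtain ⟨K₁, hK₁, hK₁i⟩ := ih (charDegree ν) (by omega) Q hQ ν hν rfl hνrat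
  let K₂ : Subgroup Q := charKer (ψ : Q → ℂ) (isCharacter_of_irr ψ.2)
  haveI : K₂.Normal := charKer_normal _
  have hK₂i : K₂.index ≤ p ^ T p (O.card * charDegree (ψ : Q → ℂ)) := by
    rcases subsingleton_or_nontrivial (Q ⧸ K₂) with hs | hnt
    · rw [Subgroup.index_eq_card, Nat.card_eq_one_iff_unique.2 ⟨hs, inferInstance⟩]
      exact Nat.one_le_pow _ _ hp1
    obtain ⟨ψ', hψ'⟩ := exists_quotient_irr ψ K₂ fun g hg => hg
    have hf : ∀ x : Q ⧸ K₂, (ψ' : Q ⧸ K₂ → ℂ) x = (ψ' : Q ⧸ K₂ → ℂ) 1 → x = 1 := by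
      intro x hx
      obtain ⟨g, rfl⟩ := QuotientGroup.mk_surjective x
      rw [hψ', ← QuotientGroup.mk_one, hψ'] at hx
      exact (QuotientGroup.eq_one_iff g).2 hx
    have hd' : Nat.card (Q ⧸ K₂) ∣ p ^ a := (Subgroup.card_quotient_dvd_card K₂).trans hdvd
    have hfix : unitFix (p ^ a) hd' (ψ' : Q ⧸ K₂ → ℂ) = unitFix (p ^ a) hdvd (ψ : Q → ℂ) := by
      ext u
      rw [mem_unitFix, mem_unitFix]
      constructor
      · intro hu g
        have := hu g
        rwa [← QuotientGroup.mk_pow, hψ', hψ'] at this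
      · intro hu x
        obtain ⟨g, rfl⟩ := QuotientGroup.mk_surjective x
        rw [← QuotientGroup.mk_pow, hψ', hψ']
        exact hu g
    have hdeg' : charDegree (ψ' : Q ⧸ K₂ → ℂ) = charDegree (ψ : Q → ℂ) := by
      simp only [charDegree]
      rw [← QuotientGroup.mk_one, hψ']
    obtain ⟨t, ht⟩ := index_unitFix_form (hQ.to_quotient K₂) hd' ψ'.2 hf
    have hb := PFieldBound.bound (p := p) (p ^ a) _ _ rfl (hQ.to_quotient K₂) hd' _ ψ'.2 hf t ht
    rw [hfix] at ht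
    rw [hdeg'] at hb
    obtain ⟨c, hc⟩ := (hQ.to_quotient K₂).exists_card_eq
    rw [hc, hp.out.factorization_pow, Finsupp.single_eq_same] at hb
    have hfd : charDegree (ψ : Q → ℂ) ∣ p ^ a := (degree_dvd ψ).trans hdvd
    obtain ⟨s, -, hs⟩ := (Nat.dvd_prime_pow hp.out).1 hfd
    rw [Subgroup.index_eq_card, hc]
    refine Nat.pow_le_pow_right hp1 ?_
    rw [hOc, ht, hs, show (p - 1) * p ^ t * p ^ s = (p - 1) * p ^ (t + s) by rw [pow_add, mul_assoc]]
    rw [hs] at hb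
    have h1 := geom_le hp.out.two_le (t + s)
    have h2 : p ^ s + (p - 1) * (t + 1) * p ^ s ≤ p ^ (t + s + 1) := by
      calc p ^ s + (p - 1) * (t + 1) * p ^ s = (1 + (p - 1) * (t + 1)) * p ^ s := by ring
        _ ≤ p ^ (t + 1) * p ^ s := Nat.mul_le_mul_right _ (bernoulli hp.out.two_le t)
        _ = p ^ (t + s + 1) := by rw [← pow_add]; congr 1; omega
    exact Nat.le_of_mul_le_mul_left (Nat.le_of_add_le_add_right (hb.trans (h2.trans h1)))
      (by have := hp.out.two_le; omega)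
  refine ⟨K₁ ⊓ K₂, fun g hg => ?_, ?_⟩
  · have h1 : ∀ φ ∈ O, φ g = φ 1 := fun φ hφ => by
      obtain ⟨u, -, rfl⟩ := Finset.mem_image.1 hφ
      rw [hsm, hsm, one_pow]
      exact K₂.pow_mem hg.2 _
    have h2 := hK₁ g hg.1
    rw [hνd, Pi.sub_apply, Pi.sub_apply, Finset.sum_apply, Finset.sum_apply, Finset.sum_congr rfl h1] at h2
    exact sub_left_injective h2
  · refine le_trans Subgroup.index_inf_le (le_trans (Nat.mul_le_mul hK₁i hK₂i) ?_)
    rw [← pow_add, ← hsplit]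
    exact Nat.pow_le_pow_right hp1 (T_add hp.out.two_le _ _)

end CfsgLib.SchurRational
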